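import Mathlib
import Cfsg.Agent.Lib.Helper99.SpxBase

/-!
# S5664 farm, piece T0
-/

set_option autoImplicit false

namespace Cfsg.Agent.Lib.Helper99.Spx

open Module
open LinearMap (BilinForm)

variable {F K : Type*} [Field F] [Field K] [Algebra F K]

theorem br_add_br (hF : ∀ l : F, l = 0 ∨ l = 1) (hr : finrank F K = 2) (ξ : K →ₗ[F] F) (c : K)
    (hc : c ≠ 0) : ∃ k : K, br ξ 1 + br ξ c = LinearMap.mulLeft F k := by
  classical
  have h2F : (1 : F) + 1 = 0 := by
    rcases hF (1 + 1) with h | h
    · exact h
    · exfalso
      have : (1 : F) = 0 := by linear_combination h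
      exact one_ne_zero this
  have h2F' : ∀ x : F, x + x = 0 := fun x => by linear_combination x * h2F
  have h2K : ∀ x : K, x + x = 0 := by
    intro x
    have : (1 : K) + 1 = 0 := by
      have := congrArg (algebraMap F K) h2F
      simpa using this
    linear_combination x * this
  by_cases hc1 : c = 1
  · refine ⟨0, ?_⟩
    subst hc1
    ext b
    simp only [LinearMap.add_apply, LinearMap.mulLeft_apply, zero_mul]
    exact h2K _
  have hli : LinearIndependent F ![(1 : K), c] := by
    rw [LinearIndependent.pair_iff]
    intro s t hst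
    rcases hF s with rfl | rfl <;> rcases hF t with rfl | rfl
    · exact ⟨rfl, rfl⟩
    · exfalso; apply hc; simpa using hst
    · exfalso; simp at hst
    · exfalso
      apply hc1
      simp only [one_smul] at hst
      have := h2K 1
      linear_combination hst - this
  have hspan : Submodule.span F (Set.range ![(1 : K), c]) = ⊤ :=
    hli.span_eq_top_of_card_eq_finrank (by simp [hr])
  have hdec : ∀ b : K, ∃ α β : F, α • (1 : K) + β • c = b := by
    intro b
    have hb : b ∈ Submodule.span F (Set.range ![(1 : K), c]) := by rw [hspan]; trivial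
    have hrange : Set.range ![(1 : K), c] = {1, c} := by
      ext x; simp [Fin.exists_fin_two, eq_comm, or_comm]
    rw [hrange, Submodule.mem_span_pair] at hb
    exact hb
  have hcc : c * c = c + 1 := by
    obtain ⟨α, β, h⟩ := hdec (c * c)
    rcases hF α with rfl | rfl <;> rcases hF β with rfl | rfl
    · exfalso; apply hc
      simp only [zero_smul, add_zero] at h
      exact mul_self_eq_zero.1 h.symm
    · exfalso
      simp only [zero_smul, zero_add, one_smul] at h
      have : c * (c - 1) = 0 := by linear_combination -h
      rcases mul_eq_zero.1 this with h' | h'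
      · exact hc h'
      · exact hc1 (sub_eq_zero.1 h')
    · exfalso
      simp only [zero_smul, add_zero, one_smul] at h
      have : (c - 1) * (c - 1) = 0 := by
        linear_combination (-1 : K) * h - h2K c + h2K 1
      exact hc1 (sub_eq_zero.1 (mul_self_eq_zero.1 this))
    · simp only [one_smul] at h
      rw [← h, add_comm]
  refine ⟨ξ 1 • (1 : K) + ξ c • c, ?_⟩
  have h1 : (br ξ 1 + br ξ c) 1 = LinearMap.mulLeft F (ξ 1 • (1 : K) + ξ c • c) 1 := by
    simp
  have h2 : (br ξ 1 + br ξ c) c = LinearMap.mulLeft F (ξ 1 • (1 : K) + ξ c • c) c := by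
    simp only [LinearMap.add_apply, br_apply, one_mul, LinearMap.mulLeft_apply, hcc, map_add,
      add_mul, smul_mul_assoc, add_smul, smul_add]
    abel
  ext b
  obtain ⟨α, β, rfl⟩ := hdec b
  rw [map_add, map_add, map_smul, map_smul, map_smul, map_smul, h1, h2]

end Cfsg.Agent.Lib.Helper99.Spx
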