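import Cfsg.Agent.Lib.Helper97.FH.Defs

/-!
# Piece BN0 of the Feit--Higman farm (S1142): the parameters
-/

set_option autoImplicit false

namespace Cfsg.Agent.Lib.Helper59.FH

open Cfsg Cfsg.Agent.Lib.Helper6.BN Cfsg.Agent.Lib.Helper97.FH
open scoped Classical

variable {G : Type*} [Group G]

theorem exists_par_one [Finite G] (P : BNPair G) {s : G} (hs : s ∈ P.S) :
    ∃ u, Nat.card (dc P s) = u * Nat.card P.B ∧ 2 ≤ u := by
  have hdisj : Disjoint (P.B : Set G) (dc P s) := by
    rw [Set.disjoint_left]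
    intro g hg hg'
    have h1 : s ∈ dc P g := mem_dc_comm hg'
    exact S_not_mem_B hs ((mem_dc_of_mem_B hg).1 h1)
  have hunion : ((P.parabolic {s} : Subgroup G) : Set G) = (P.B : Set G) ∪ dc P s := by
    ext g
    exact mem_parabolic_singleton hs g
  have hcard : Nat.card (P.parabolic {s}) = Nat.card P.B + Nat.card (dc P s) := by
    have h1 : Nat.card (P.parabolic {s}) = ((P.parabolic {s} : Subgroup G) : Set G).ncard :=
      Nat.card_coe_set_eq _
    rw [h1, hunion, Set.ncard_union_eq hdisj (Set.toFinite _) (Set.toFinite _)]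
    rfl
  have hdvd : Nat.card P.B ∣ Nat.card (dc P s) := by
    have h1 : Nat.card P.B ∣ Nat.card (P.parabolic {s}) :=
      Subgroup.card_dvd_of_le (B_le_parabolic _)
    rw [hcard] at h1
    exact (Nat.dvd_add_right (dvd_refl _)).1 h1
  obtain ⟨u, hu⟩ := hdvd
  refine ⟨u, by rw [hu, mul_comm], ?_⟩
  have hBpos : 0 < Nat.card P.B := Nat.card_pos
  have hne : (dc P s).Nonempty := ⟨s, self_mem_dc s⟩
  have hpos : 0 < Nat.card (dc P s) := by
    have : Nonempty (dc P s) := hne.to_subtype
    exact Nat.card_pos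
  by_contra hcon
  have hu1 : u = 1 := by
    rcases Nat.lt_or_ge u 1 with h | h
    · have : u = 0 := by omega
      rw [this, mul_zero] at hu
      omega
    · omega
  rw [hu1, mul_one] at hu
  -- `dc s = s B`
  have hsub : (fun b => s * b) '' (P.B : Set G) ⊆ dc P s := by
    rintro _ ⟨b, hb, rfl⟩
    exact mul_right_mem_dc hb (self_mem_dc s)
  have heq : (fun b => s * b) '' (P.B : Set G) = dc P s := by
    apply Set.eq_of_subset_of_ncard_le hsub _ (Set.toFinite _)
    rw [Set.ncard_image_of_injective _ (mul_right_injective s)]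
    have h1 : (dc P s).ncard = Nat.card (dc P s) := (Nat.card_coe_set_eq _).symm
    have h2 : (P.B : Set G).ncard = Nat.card P.B := (Nat.card_coe_set_eq _).symm
    rw [h1, h2, hu]
  obtain ⟨b, hb, hsbs⟩ := exists_sbs hs
  have h1 : b * s ∈ dc P s := mul_left_mem_dc hb (self_mem_dc s)
  rw [← heq] at h1
  obtain ⟨b', hb', hbb⟩ := h1
  have h2 : s * b * s = s * s * b' := by
    rw [mul_assoc, ← hbb]
    simp only [mul_assoc]
  have h3 : s * b * s ∈ P.B := by
    rw [h2]
    exact P.B.mul_mem (P.sq_mem s hs) hb'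
  exact Set.disjoint_left.1 hdisj h3 hsbs

theorem exists_par [Finite G] (P : BNPair G) {s t : G} (hs : s ∈ P.S) (ht : t ∈ P.S) :
    ∃ u v, Par P s t u v := by
  obtain ⟨u, hu, hu2⟩ := exists_par_one P hs
  obtain ⟨v, hv, hv2⟩ := exists_par_one P ht
  exact ⟨u, v, hu, hv, hu2, hv2⟩

end Cfsg.Agent.Lib.Helper59.FH
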