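import Cfsg.Agent.Lib.Helper59.FHDih

/-!
# Feit--Higman farm (S1142), piece BN1: the dihedral parametrisation of the Weyl group
-/

set_option autoImplicit false
set_option linter.unusedSectionVars false

namespace Cfsg.Agent.Lib.Helper59.FH

open Cfsg Cfsg.Agent.Lib.Helper6.BN Cfsg.Agent.Lib.Helper97.FH
open scoped Classical

variable {G : Type*} [Group G] {P : BNPair G}

/-- `T = B ⊓ N` inside `N` -/
abbrev TT (P : BNPair G) : Subgroup P.N := (P.B ⊓ P.N).subgroupOf P.N

instance TT_normal (P : BNPair G) : (TT P).Normal := by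
  constructor
  intro n hn g
  rw [Subgroup.mem_subgroupOf] at hn ⊢
  refine ⟨?_, (g * n * g⁻¹).2⟩
  exact P.conj_mem g g.2 n hn

theorem rel_iff_mk (a b : P.N) :
    Rel P (a : G) (b : G) ↔ (QuotientGroup.mk' (TT P) a) = QuotientGroup.mk' (TT P) b := by
  rw [QuotientGroup.mk'_apply, QuotientGroup.mk'_apply, QuotientGroup.eq, Subgroup.mem_subgroupOf]
  constructor
  · intro h
    exact ⟨h, (a⁻¹ * b).2⟩
  · intro h
    exact h.1

theorem lett_mem_S {a b : G} (ha : a ∈ P.S) (hb : b ∈ P.S) (j : ℕ) : lett a b j ∈ P.S := by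
  rcases lett_mem a b j with e | e <;> rw [e] <;> assumption

theorem zz_mem_N {a b : G} (ha : a ∈ P.S) (hb : b ∈ P.S) (j : ℕ) : zz a b j ∈ P.N := by
  induction j with
  | zero => exact P.N.one_mem
  | succ j ih => exact P.N.mul_mem (S_mem_N (lett_mem_S ha hb j)) ih

theorem len_zz_le {a b : G} (ha : a ∈ P.S) (hb : b ∈ P.S) (j : ℕ) : len P (zz a b j) ≤ j := by
  induction j with
  | zero => exact le_of_eq ((len_eq_zero P.N.one_mem).2 P.B.one_mem)
  | succ j ih =>
    have := len_mul_le (lett_mem_S ha hb j) (zz_mem_N ha hb j)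
    rw [zz_succ]
    omega

theorem alt_step {a b : G} (ha : a ∈ P.S) (hb : b ∈ P.S) {x : G} (hx : x = a ∨ x = b) (j : ℕ) :
    ∃ j' ≤ j + 1, Rel P (zz a b j') (x * zz a b j) ∨ Rel P (zz b a j') (x * zz a b j) := by
  by_cases hxl : x = lett a b j
  · exact ⟨j + 1, le_rfl, Or.inl (by rw [hxl]; exact Rel.refl _)⟩
  · rcases j with _ | i
    · rw [lett_even _ _ (by simp)] at hxl
      have hxb : x = b := by tauto
      refine ⟨1, le_rfl, Or.inr ?_⟩
      rw [hxb, zz_succ, lett_even _ _ (by simp), zz_zero, zz_zero]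
      exact Rel.refl _
    · have hxi : x = lett a b i := by
        by_cases he : Even i
        · rw [lett_odd _ _ (by rw [Nat.even_add_one]; exact not_not.2 he)] at hxl
          rw [lett_even _ _ he]
          tauto
        · rw [lett_even _ _ (by rw [Nat.even_add_one]; exact he)] at hxl
          rw [lett_odd _ _ he]
          tauto
      refine ⟨i, by omega, Or.inl ?_⟩
      rw [zz_succ, hxi]
      exact (rel_sq_mul (lett_mem_S ha hb i) (zz_mem_N ha hb i)).symm

theorem word_alt {s t : G} (hs : s ∈ P.S) (ht : t ∈ P.S) (hS : ∀ x ∈ P.S, x = s ∨ x = t) :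
    ∀ L : List G, IsWord P.S L →
      ∃ j ≤ L.length, Rel P (zz s t j) L.prod ∨ Rel P (zz t s j) L.prod := by
  intro L
  induction L with
  | nil => intro _; exact ⟨0, le_rfl, Or.inl (by simpa [zz_zero] using Rel.refl (P := P) 1)⟩
  | cons x L ih =>
    intro hL
    obtain ⟨j, hj, h⟩ := ih hL.tail
    have hx := hS x hL.head
    rw [List.prod_cons, List.length_cons]
    rcases h with h | h
    · obtain ⟨j', hj', h'⟩ := alt_step hs ht hx j
      refine ⟨j', by omega, ?_⟩
      rcases h' with h' | h'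
      · exact Or.inl (h'.trans (h.mul_left x))
      · exact Or.inr (h'.trans (h.mul_left x))
    · obtain ⟨j', hj', h'⟩ := alt_step ht hs hx.symm j
      refine ⟨j', by omega, ?_⟩
      rcases h' with h' | h'
      · exact Or.inr (h'.trans (h.mul_left x))
      · exact Or.inl (h'.trans (h.mul_left x))

theorem exists_dih [Finite G] (P : BNPair G) (h2 : P.rank = 2) : ∃ s t m, Dih P s t m := by
  have hcard : P.S.ncard = 2 := by
    rw [← Nat.card_coe_set_eq]
    exact h2
  obtain ⟨s, t, hne, hSeq⟩ := Set.ncard_eq_two.1 hcard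
  have hs : s ∈ P.S := by rw [hSeq]; simp
  have ht : t ∈ P.S := by rw [hSeq]; simp
  have hS : ∀ x ∈ P.S, x = s ∨ x = t := by
    intro x hx
    rw [hSeq] at hx
    simpa using hx
  let s' : P.N := ⟨s, S_mem_N hs⟩
  let t' : P.N := ⟨t, S_mem_N ht⟩
  let π := QuotientGroup.mk' (TT P)
  set σ := π s' with hσ
  set τ := π t' with hτ
  have hone : ∀ a : P.N, π a = 1 ↔ (a : G) ∈ P.B := by
    intro a
    have := rel_iff_mk (P := P) 1 a
    rw [map_one] at this
    rw [eq_comm, ← this]
    exact rel_one_iff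
  have hI : Inv2 σ τ := by
    refine ⟨?_, ?_, ?_, ?_, ?_⟩
    · rw [hσ, ← map_mul, hone]
      exact P.sq_mem s hs
    · rw [hτ, ← map_mul, hone]
      exact P.sq_mem t ht
    · rw [hσ, Ne, hone]
      exact S_not_mem_B hs
    · rw [hτ, Ne, hone]
      exact S_not_mem_B ht
    · intro e
      exact hne (P.inj s hs t ht ((rel_iff_mk s' t').2 e))
  have hgen : Subgroup.closure {σ, τ} = ⊤ := by
    rw [eq_top_iff]
    intro w _
    obtain ⟨n, rfl⟩ := QuotientGroup.mk'_surjective (TT P) w
    have key : ∀ L : List G, IsWord P.S L → ∀ a : P.N, (a : G) = L.prod →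
        π a ∈ Subgroup.closure {σ, τ} := by
      intro L
      induction L with
      | nil =>
        intro _ a ha
        have : a = 1 := Subtype.ext (by simpa using ha)
        rw [this, map_one]
        exact Subgroup.one_mem _
      | cons x L ih =>
        intro hL a ha
        have h1 := ih hL.tail ⟨L.prod, hL.tail.prod_mem_N⟩ rfl
        rcases hS x hL.head with rfl | rfl
        · have : a = s' * ⟨L.prod, hL.tail.prod_mem_N⟩ := Subtype.ext (by simpa using ha)
          rw [this, map_mul]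
          exact Subgroup.mul_mem _ (Subgroup.subset_closure (by simp [hσ])) h1
        · have : a = t' * ⟨L.prod, hL.tail.prod_mem_N⟩ := Subtype.ext (by simpa using ha)
          rw [this, map_mul]
          exact Subgroup.mul_mem _ (Subgroup.subset_closure (by simp [hτ])) h1
    obtain ⟨L, hL, hrel⟩ := exists_word n.2
    have h1 := key L hL ⟨L.prod, hL.prod_mem_N⟩ rfl
    have h2 : π ⟨L.prod, hL.prod_mem_N⟩ = π n := (rel_iff_mk _ _).1 hrel
    rw [h2] at h1
    exact h1
  obtain ⟨m, hm⟩ : ∃ m, orderOf (τ * σ) = m := ⟨_, rfl⟩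
  have hm0 : 0 < m := by rw [← hm]; exact orderOf_pos _
  have hm2 : 2 ≤ m := by
    have : m ≠ 1 := by
      intro e
      rw [e, orderOf_eq_one_iff] at hm
      exact hI.rho_ne_one hm
    omega
  -- transfer
  have hval : ∀ j, ((zz s' t' j : P.N) : G) = zz s t j := fun j => map_zz P.N.subtype s' t' j
  have hval' : ∀ j, ((zz t' s' j : P.N) : G) = zz t s j := fun j => map_zz P.N.subtype t' s' j
  have hπ : ∀ j, π (zz s' t' j) = zz σ τ j := fun j => map_zz π s' t' j
  have hπ' : ∀ j, π (zz t' s' j) = zz τ σ j := fun j => map_zz π t' s' j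
  have hrel : ∀ j k, Rel P (zz s t j) (zz s t k) ↔ j ≡ k [MOD 2 * m] := by
    intro j k
    rw [← hval, ← hval, rel_iff_mk]
    show π _ = π _ ↔ _
    rw [hπ, hπ, hI.zz_eq_iff hm hm0]
  have hswap : ∀ k ≤ 2 * m, Rel P (zz t s k) (zz s t (2 * m - k)) := by
    intro k hk
    rw [← hval, ← hval', rel_iff_mk]
    show π _ = π _
    rw [hπ, hπ', hI.zz_swap hm hk]
  -- the length function
  have hlen : ∀ j ≤ 2 * m, len P (zz s t j) = min j (2 * m - j) := by
    intro j hj
    have hu1 : len P (zz s t j) ≤ j := len_zz_le hs ht j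
    have hu2 : len P (zz s t j) ≤ 2 * m - j := by
      have h1 := hswap (2 * m - j) (by omega)
      have h2 : 2 * m - (2 * m - j) = j := by omega
      rw [h2] at h1
      rw [← len_congr h1]
      exact len_zz_le ht hs _
    obtain ⟨L, hL, hLr, hLl⟩ := exists_word_len (zz_mem_N hs ht j)
    obtain ⟨j', hj', h⟩ := word_alt hs ht hS L hL
    rw [hLl] at hj'
    by_cases hj0 : j = 0 ∨ j = 2 * m
    · rcases hj0 with rfl | rfl <;> omega
    · push Not at hj0
      have hjlt : j < 2 * m := by omega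
      rcases h with h | h
      · have h1 : j' ≡ j [MOD 2 * m] := (hrel j' j).1 (h.trans hLr)
        have h2 : j' = j := Nat.ModEq.eq_of_lt_of_lt h1 (by omega) hjlt
        omega
      · have h1 : 2 * m - j' ≡ j [MOD 2 * m] :=
          (hrel _ _).1 ((hswap j' (by omega)).symm.trans (h.trans hLr))
        rcases Nat.eq_zero_or_pos j' with h0 | h0
        · exfalso
          rw [h0, Nat.sub_zero] at h1
          have h3 : 0 ≡ j [MOD 2 * m] := by
            have : 2 * m ≡ 0 [MOD 2 * m] := by simp [Nat.ModEq]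
            exact this.symm.trans h1
          have := Nat.ModEq.eq_of_lt_of_lt h3 (by omega) hjlt
          omega
        · have h2 : 2 * m - j' = j := Nat.ModEq.eq_of_lt_of_lt h1 (by omega) hjlt
          omega
  refine ⟨s, t, m, hs, ht, hne, hm2, ?_, hrel, ?_, ?_, ?_, ?_⟩
  · exact hI.card_eq hm hm0 hgen
  · intro n hn
    obtain ⟨j, hj, e⟩ := hI.zz_surj hm hm0 hgen (π ⟨n, hn⟩)
    refine ⟨j, hj, ?_⟩
    rw [← hval]
    apply (rel_iff_mk (zz s' t' j) ⟨n, hn⟩).2
    show π _ = π _
    rw [hπ, e]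
  · intro j
    rw [Cfsg.Agent.Lib.Helper6.BN.up_iff (lett_mem_S hs ht j) (zz_mem_N hs ht j), ← zz_succ]
    set r := j % (2 * m) with hr
    have hr2 : r < 2 * m := Nat.mod_lt _ (by omega)
    have h1 : Rel P (zz s t r) (zz s t j) := (hrel _ _).2 (Nat.mod_modEq _ _)
    have h2 : Rel P (zz s t (r + 1)) (zz s t (j + 1)) :=
      (hrel _ _).2 ((Nat.mod_modEq _ _).add_right 1)
    rw [← len_congr h1, ← len_congr h2, hlen r (by omega), hlen (r + 1) (by omega)]
    omega
  · intro j k hjk
    have e := hI.zz_mul_sigma hm hm2 hjk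
    rw [← hval, ← hval]
    apply (rel_iff_mk (zz s' t' j * s') (zz s' t' k)).2
    show π _ = π _
    rw [map_mul, hπ, hπ, e]
  · intro j k hj hjk
    have e := hI.zz_inv_even hm hj hjk
    rw [← hval, ← hval]
    apply (rel_iff_mk (zz s' t' j)⁻¹ (zz s' t' k)).2
    show π _ = π _
    rw [map_inv, hπ, hπ, e]

end Cfsg.Agent.Lib.Helper59.FH
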