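import Cfsg.Agent.Lib.Helper97.FH.Defs

/-!
# Feit--Higman farm (S1142), piece BN1, part 1: alternating words in a group generated by two involutions
-/

set_option autoImplicit false
set_option linter.unusedSectionVars false

namespace Cfsg.Agent.Lib.Helper59.FH

open Cfsg Cfsg.Agent.Lib.Helper97.FH
open scoped Classical

section hom

variable {G G' : Type*} [Group G] [Group G']

theorem map_lett (f : G →* G') (s t : G) (j : ℕ) : f (lett s t j) = lett (f s) (f t) j := by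
  unfold lett
  split_ifs <;> rfl

theorem map_zz (f : G →* G') (s t : G) (j : ℕ) : f (zz s t j) = zz (f s) (f t) j := by
  induction j with
  | zero => exact map_one f
  | succ j ih =>
    show f (lett s t j * zz s t j) = lett (f s) (f t) j * zz (f s) (f t) j
    rw [map_mul, map_lett, ih]

theorem zz_succ (s t : G) (j : ℕ) : zz s t (j + 1) = lett s t j * zz s t j := rfl

theorem zz_zero (s t : G) : zz s t 0 = 1 := rfl

theorem lett_even (s t : G) {j : ℕ} (h : Even j) : lett s t j = s := if_pos h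

theorem lett_odd (s t : G) {j : ℕ} (h : ¬ Even j) : lett s t j = t := if_neg h

theorem lett_swap (s t : G) (j : ℕ) : lett t s j = lett s t (j + 1) := by
  by_cases h : Even j
  · rw [lett_even _ _ h, lett_odd _ _ (by rw [Nat.even_add_one]; exact not_not.2 h)]
  · rw [lett_odd _ _ h, lett_even _ _ (by rw [Nat.even_add_one]; exact h)]

theorem lett_mem (s t : G) (j : ℕ) : lett s t j = s ∨ lett s t j = t := by
  by_cases h : Even j
  · left; exact lett_even _ _ h
  · right; exact lett_odd _ _ h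

end hom

/-- two involutions of a group -/
structure Inv2 {W : Type*} [Group W] (σ τ : W) : Prop where
  σσ : σ * σ = 1
  ττ : τ * τ = 1
  σ1 : σ ≠ 1
  τ1 : τ ≠ 1
  ne : σ ≠ τ

namespace Inv2

variable {W : Type*} [Group W] {σ τ : W}

theorem symm (h : Inv2 σ τ) : Inv2 τ σ := ⟨h.ττ, h.σσ, h.τ1, h.σ1, h.ne.symm⟩

theorem lett_sq (h : Inv2 σ τ) (j : ℕ) : lett σ τ j * lett σ τ j = 1 := by
  rcases lett_mem σ τ j with e | e <;> rw [e]
  · exact h.σσ
  · exact h.ττ

theorem zz_two_mul (h : Inv2 σ τ) (i : ℕ) : zz σ τ (2 * i) = (τ * σ) ^ i := by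
  induction i with
  | zero => simp [zz_zero]
  | succ i ih =>
    have e : 2 * (i + 1) = (2 * i + 1) + 1 := by ring
    rw [e, zz_succ, zz_succ, ih, lett_odd _ _ (by simp),
      lett_even _ _ (by simp), pow_succ', mul_assoc]

theorem zz_two_mul_add_one (h : Inv2 σ τ) (i : ℕ) : zz σ τ (2 * i + 1) = σ * (τ * σ) ^ i := by
  rw [zz_succ, h.zz_two_mul, lett_even _ _ (by simp)]

theorem conj_rho (h : Inv2 σ τ) : σ * (τ * σ) * σ = (τ * σ)⁻¹ := by
  have e1 : σ⁻¹ = σ := inv_eq_of_mul_eq_one_left h.σσ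
  have e2 : τ⁻¹ = τ := inv_eq_of_mul_eq_one_left h.ττ
  rw [mul_inv_rev, e1, e2, mul_assoc, mul_assoc, h.σσ, mul_one]

theorem rho_ne_one (h : Inv2 σ τ) : τ * σ ≠ 1 := by
  intro e
  apply h.ne
  have e1 : σ⁻¹ = σ := inv_eq_of_mul_eq_one_left h.σσ
  rw [← e1]
  exact (eq_inv_of_mul_eq_one_left e).symm

/-- `ρ^a σ = σ ρ^{-a}` in the form `ρ^a σ ρ^a = σ` -/
theorem pow_mul_sigma (h : Inv2 σ τ) (a : ℕ) : (τ * σ) ^ a * σ * (τ * σ) ^ a = σ := by
  induction a with
  | zero => simp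
  | succ a ih =>
    calc (τ * σ) ^ (a + 1) * σ * (τ * σ) ^ (a + 1)
        = ((τ * σ) ^ a * (τ * σ)) * σ * ((τ * σ) * (τ * σ) ^ a) := by
          rw [← pow_succ, ← pow_succ']
      _ = (τ * σ) ^ a * ((τ * σ) * σ * (τ * σ)) * (τ * σ) ^ a := by
          simp only [mul_assoc]
      _ = (τ * σ) ^ a * σ * (τ * σ) ^ a := by
          have : (τ * σ) * σ * (τ * σ) = σ := by
            calc (τ * σ) * σ * (τ * σ) = τ * (σ * σ) * τ * σ := by simp only [mul_assoc]
              _ = σ := by rw [h.σσ, mul_one, h.ττ, one_mul]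
          rw [this]
      _ = σ := ih

theorem sigma_not_pow (h : Inv2 σ τ) (a b : ℕ) : σ * (τ * σ) ^ a ≠ (τ * σ) ^ b := by
  intro e
  set ρ := τ * σ with hρ
  -- `σ` is a power of `ρ`
  have hσ : σ ∈ Subgroup.zpowers ρ := by
    have : σ = ρ ^ b * (ρ ^ a)⁻¹ := by rw [← e]; group
    rw [this]
    exact Subgroup.mul_mem _ (Subgroup.pow_mem _ (Subgroup.mem_zpowers ρ) b)
      (Subgroup.inv_mem _ (Subgroup.pow_mem _ (Subgroup.mem_zpowers ρ) a))
  obtain ⟨c, hc⟩ := Subgroup.mem_zpowers_iff.1 hσ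
  have hcomm : Commute σ ρ := by
    rw [← hc]
    exact (Commute.refl ρ).zpow_left c
  have h1 : ρ = ρ⁻¹ := by
    have := h.conj_rho
    rw [← hρ, hcomm.eq, mul_assoc, h.σσ, mul_one] at this
    exact this
  have h2 : ρ * ρ = 1 := by
    nth_rewrite 2 [h1]
    exact mul_inv_cancel ρ
  rcases Int.even_or_odd' c with ⟨k, rfl | rfl⟩
  · apply h.σ1
    rw [← hc, zpow_mul, zpow_two, h2, one_zpow]
  · apply h.τ1
    have h3 : σ = ρ := by
      rw [← hc, zpow_add, zpow_mul, zpow_two, h2, one_zpow, one_mul, zpow_one]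
    have h4 : τ * σ = σ := by rw [← hρ]; exact h3.symm
    exact mul_eq_right.1 h4

variable {m : ℕ}

theorem zz_add_period (h : Inv2 σ τ) (hm : orderOf (τ * σ) = m) (j : ℕ) :
    zz σ τ (j + 2 * m) = zz σ τ j := by
  have hρ : (τ * σ) ^ m = 1 := by rw [← hm]; exact pow_orderOf_eq_one _
  obtain ⟨a, rfl | rfl⟩ := Nat.even_or_odd' j
  · rw [← Nat.mul_add, h.zz_two_mul, h.zz_two_mul, pow_add, hρ, mul_one]
  · have e : 2 * a + 1 + 2 * m = 2 * (a + m) + 1 := by ring
    rw [e, h.zz_two_mul_add_one, h.zz_two_mul_add_one, pow_add, hρ, mul_one]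

theorem zz_add_mul_period (h : Inv2 σ τ) (hm : orderOf (τ * σ) = m) (j c : ℕ) :
    zz σ τ (j + 2 * m * c) = zz σ τ j := by
  induction c with
  | zero => simp
  | succ c ih =>
    have e : j + 2 * m * (c + 1) = (j + 2 * m * c) + 2 * m := by ring
    rw [e, h.zz_add_period hm, ih]

theorem zz_eq_of_modEq (h : Inv2 σ τ) (hm : orderOf (τ * σ) = m) {j k : ℕ}
    (hjk : j ≡ k [MOD 2 * m]) : zz σ τ j = zz σ τ k := by
  rcases le_total j k with hle | hle
  · obtain ⟨c, hc⟩ := (Nat.modEq_iff_dvd' hle).1 hjk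
    have : k = j + 2 * m * c := by omega
    rw [this, h.zz_add_mul_period hm]
  · obtain ⟨c, hc⟩ := (Nat.modEq_iff_dvd' hle).1 hjk.symm
    have : j = k + 2 * m * c := by omega
    rw [this, h.zz_add_mul_period hm]

theorem zz_inj (h : Inv2 σ τ) (hm : orderOf (τ * σ) = m) {j k : ℕ} (hj : j < 2 * m)
    (hk : k < 2 * m) (e : zz σ τ j = zz σ τ k) : j = k := by
  have hinj : ∀ a b : ℕ, a < m → b < m → (τ * σ) ^ a = (τ * σ) ^ b → a = b := by
    intro a b ha hb hab
    exact pow_injOn_Iio_orderOf (by rw [hm]; exact ha) (by rw [hm]; exact hb) hab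
  obtain ⟨a, rfl | rfl⟩ := Nat.even_or_odd' j <;> obtain ⟨b, rfl | rfl⟩ := Nat.even_or_odd' k
  · rw [h.zz_two_mul, h.zz_two_mul] at e
    rw [hinj a b (by omega) (by omega) e]
  · rw [h.zz_two_mul, h.zz_two_mul_add_one] at e
    exact absurd e.symm (h.sigma_not_pow b a)
  · rw [h.zz_two_mul, h.zz_two_mul_add_one] at e
    exact absurd e (h.sigma_not_pow a b)
  · rw [h.zz_two_mul_add_one, h.zz_two_mul_add_one] at e
    rw [hinj a b (by omega) (by omega) (mul_left_cancel e)]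

theorem zz_eq_iff (h : Inv2 σ τ) (hm : orderOf (τ * σ) = m) (hm0 : 0 < m) (j k : ℕ) :
    zz σ τ j = zz σ τ k ↔ j ≡ k [MOD 2 * m] := by
  refine ⟨fun e => ?_, h.zz_eq_of_modEq hm⟩
  have h1 : zz σ τ (j % (2 * m)) = zz σ τ j := h.zz_eq_of_modEq hm (Nat.mod_modEq _ _)
  have h2 : zz σ τ (k % (2 * m)) = zz σ τ k := h.zz_eq_of_modEq hm (Nat.mod_modEq _ _)
  exact h.zz_inj hm (Nat.mod_lt _ (by omega)) (Nat.mod_lt _ (by omega)) (by rw [h1, h2, e])

/-- left multiplication by a letter moves along the cycle -/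
theorem exists_zz_mul (h : Inv2 σ τ) (hm : orderOf (τ * σ) = m) (hm0 : 0 < m) {x : W}
    (hx : x = σ ∨ x = τ) (j : ℕ) : ∃ j', zz σ τ j' = x * zz σ τ j := by
  obtain ⟨i, hi⟩ : ∃ i, j + 2 * m = i + 1 := ⟨j + 2 * m - 1, by omega⟩
  rw [← h.zz_add_period hm j, hi]
  by_cases hxl : x = lett σ τ (i + 1)
  · exact ⟨i + 2, by rw [hxl]; rfl⟩
  · have hxi : x = lett σ τ i := by
      by_cases he : Even i
      · rw [lett_odd _ _ (by rw [Nat.even_add_one]; exact not_not.2 he)] at hxl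
        rw [lett_even _ _ he]
        tauto
      · rw [lett_even _ _ (by rw [Nat.even_add_one]; exact he)] at hxl
        rw [lett_odd _ _ he]
        tauto
    refine ⟨i, ?_⟩
    rw [zz_succ, hxi, ← mul_assoc, h.lett_sq, one_mul]

theorem zz_surj (h : Inv2 σ τ) (hm : orderOf (τ * σ) = m) (hm0 : 0 < m)
    (hgen : Subgroup.closure {σ, τ} = ⊤) (w : W) : ∃ j < 2 * m, zz σ τ j = w := by
  have key : ∃ j, zz σ τ j = w := by
    have hw : w ∈ Subgroup.closure {σ, τ} := by rw [hgen]; exact Subgroup.mem_top w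
    induction hw using Subgroup.closure_induction_left with
    | one => exact ⟨0, rfl⟩
    | mul_left x hx y hy ih =>
      obtain ⟨j, rfl⟩ := ih
      exact h.exists_zz_mul hm hm0 hx j
    | inv_mul_cancel x hx y hy ih =>
      obtain ⟨j, rfl⟩ := ih
      have hx' : x = σ ∨ x = τ := hx
      have hinv : x⁻¹ = x := by
        rcases hx' with rfl | rfl
        · exact inv_eq_of_mul_eq_one_left h.σσ
        · exact inv_eq_of_mul_eq_one_left h.ττ
      rw [hinv]
      exact h.exists_zz_mul hm hm0 hx' j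
  obtain ⟨j, hj⟩ := key
  exact ⟨j % (2 * m), Nat.mod_lt _ (by omega),
    (h.zz_eq_of_modEq hm (Nat.mod_modEq _ _)).trans hj⟩

theorem pow_mul_pow_eq_one (hm : orderOf (τ * σ) = m) {a b : ℕ} (hab : m ∣ a + b) :
    (τ * σ) ^ a * (τ * σ) ^ b = 1 := by
  rw [← pow_add]
  exact orderOf_dvd_iff_pow_eq_one.1 (by rw [hm]; exact hab)

theorem zz_mul_sigma (h : Inv2 σ τ) (hm : orderOf (τ * σ) = m) (hm2 : 2 ≤ m) {j k : ℕ}
    (hjk : (j + k) % (2 * m) = 1) : zz σ τ j * σ = zz σ τ k := by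
  -- `j + k = 2 m c + 1`
  have h1 : j + k = 2 * m * ((j + k) / (2 * m)) + 1 := by
    conv_lhs => rw [← Nat.div_add_mod (j + k) (2 * m), hjk]
  set c := (j + k) / (2 * m) with hc
  obtain ⟨a, rfl | rfl⟩ := Nat.even_or_odd' j <;> obtain ⟨b, rfl | rfl⟩ := Nat.even_or_odd' k
  · exfalso
    have : 2 * (a + b) = 2 * (m * c) + 1 := by rw [← mul_assoc]; omega
    omega
  · have hab : a + b = m * c := by
      have : 2 * (a + b) = 2 * (m * c) := by rw [← mul_assoc]; omega
      omega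
    rw [h.zz_two_mul, h.zz_two_mul_add_one]
    have e1 := h.pow_mul_sigma a
    have e2 : (τ * σ) ^ a * (τ * σ) ^ b = 1 := pow_mul_pow_eq_one hm ⟨c, hab⟩
    calc (τ * σ) ^ a * σ = (τ * σ) ^ a * σ * ((τ * σ) ^ a * (τ * σ) ^ b) := by rw [e2, mul_one]
      _ = ((τ * σ) ^ a * σ * (τ * σ) ^ a) * (τ * σ) ^ b := by simp only [mul_assoc]
      _ = σ * (τ * σ) ^ b := by rw [e1]
  · have hab : a + b = m * c := by
      have : 2 * (a + b) = 2 * (m * c) := by rw [← mul_assoc]; omega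
      omega
    rw [h.zz_two_mul, h.zz_two_mul_add_one]
    have e1 := h.pow_mul_sigma a
    have e2 : (τ * σ) ^ a * (τ * σ) ^ b = 1 := pow_mul_pow_eq_one hm ⟨c, hab⟩
    calc σ * (τ * σ) ^ a * σ = σ * ((τ * σ) ^ a * σ * ((τ * σ) ^ a * (τ * σ) ^ b)) := by
          rw [e2, mul_one, mul_assoc]
      _ = σ * (((τ * σ) ^ a * σ * (τ * σ) ^ a) * (τ * σ) ^ b) := by simp only [mul_assoc]
      _ = (τ * σ) ^ b := by rw [e1, ← mul_assoc, h.σσ, one_mul]
  · exfalso
    have : 2 * (a + b + 1) = 2 * (m * c) + 1 := by rw [← mul_assoc]; omega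
    omega

theorem zz_inv_even (h : Inv2 σ τ) (hm : orderOf (τ * σ) = m) {j k : ℕ} (hj : Even j)
    (hjk : (j + k) % (2 * m) = 0) : (zz σ τ j)⁻¹ = zz σ τ k := by
  have h1 : j + k = 2 * m * ((j + k) / (2 * m)) := by
    conv_lhs => rw [← Nat.div_add_mod (j + k) (2 * m), hjk, add_zero]
  set c := (j + k) / (2 * m) with hc
  obtain ⟨a, rfl⟩ : ∃ a, j = 2 * a := by
    obtain ⟨a, ha⟩ := hj
    exact ⟨a, by omega⟩
  obtain ⟨b, rfl | rfl⟩ := Nat.even_or_odd' k
  · have hab : a + b = m * c := by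
      have : 2 * (a + b) = 2 * (m * c) := by rw [← mul_assoc]; omega
      omega
    rw [h.zz_two_mul, h.zz_two_mul]
    exact inv_eq_of_mul_eq_one_right (pow_mul_pow_eq_one hm ⟨c, hab⟩)
  · exfalso
    have : 2 * (a + b) + 1 = 2 * (m * c) := by rw [← mul_assoc]; omega
    omega

theorem card_eq (h : Inv2 σ τ) (hm : orderOf (τ * σ) = m) (hm0 : 0 < m)
    (hgen : Subgroup.closure {σ, τ} = ⊤) : Nat.card W = 2 * m := by
  have hbij : Function.Bijective (fun j : Fin (2 * m) => zz σ τ (j : ℕ)) := by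
    constructor
    · intro j k e
      exact Fin.ext (h.zz_inj hm j.2 k.2 e)
    · intro w
      obtain ⟨j, hj, e⟩ := h.zz_surj hm hm0 hgen w
      exact ⟨⟨j, hj⟩, e⟩
  rw [← Nat.card_congr (Equiv.ofBijective _ hbij), Nat.card_fin]

theorem orderOf_swap (h : Inv2 σ τ) : orderOf (σ * τ) = orderOf (τ * σ) := by
  have e1 : σ⁻¹ = σ := inv_eq_of_mul_eq_one_left h.σσ
  have e2 : τ⁻¹ = τ := inv_eq_of_mul_eq_one_left h.ττ
  have : σ * τ = (τ * σ)⁻¹ := by rw [mul_inv_rev, e1, e2]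
  rw [this, orderOf_inv]

/-- the alternating words ending with `τ` -/
theorem zz_swap (h : Inv2 σ τ) (hm : orderOf (τ * σ) = m) {k : ℕ} (hk : k ≤ 2 * m) :
    zz τ σ k = zz σ τ (2 * m - k) := by
  induction k with
  | zero =>
    have := h.zz_add_period hm 0
    rw [zero_add] at this
    rw [Nat.sub_zero, this]
    rfl
  | succ k ih =>
    obtain ⟨i, hi⟩ : ∃ i, 2 * m - k = i + 1 := ⟨2 * m - k - 1, by omega⟩
    have hi' : 2 * m - (k + 1) = i := by omega
    rw [zz_succ, ih (by omega), hi, hi', zz_succ, ← mul_assoc]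
    have hl : lett τ σ k = lett σ τ i := by
      rw [lett_swap]
      have hpar : (Even (k + 1) ↔ Even i) := by
        have e : k + 1 + i = 2 * m := by omega
        have h2 : Even (k + 1 + i) := by rw [e]; exact even_two_mul m
        rw [Nat.even_add] at h2
        exact h2
      by_cases he : Even i
      · rw [lett_even _ _ he, lett_even _ _ (hpar.2 he)]
      · rw [lett_odd _ _ he, lett_odd _ _ (fun h' => he (hpar.1 h'))]
    rw [hl, h.lett_sq, one_mul]

end Inv2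

end Cfsg.Agent.Lib.Helper59.FH
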