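import Cfsg.Agent.Lib.Helper59.FHBN1

/-!
# Feit--Higman farm (S1142), piece L1: the double cosets of `P_s`
-/

set_option autoImplicit false
set_option linter.unusedSectionVars false

namespace Cfsg.Agent.Lib.Helper59.FH

open Cfsg Cfsg.Agent.Lib.Helper6.BN Cfsg.Agent.Lib.Helper97.FH
open scoped Classical

variable {G : Type*} [Group G] {P : BNPair G}

/-- `y ∈ K x K` -/
def DCo (K : Subgroup G) (x y : G) : Prop := ∃ h ∈ K, ∃ h' ∈ K, y = h * x * h'

theorem DCo.refl (K : Subgroup G) (x : G) : DCo K x x := ⟨1, K.one_mem, 1, K.one_mem, by simp⟩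

theorem DCo.symm {K : Subgroup G} {x y : G} (h : DCo K x y) : DCo K y x := by
  obtain ⟨a, ha, b, hb, rfl⟩ := h
  exact ⟨a⁻¹, K.inv_mem ha, b⁻¹, K.inv_mem hb, by group⟩

theorem DCo.trans {K : Subgroup G} {x y z : G} (h : DCo K x y) (h' : DCo K y z) : DCo K x z := by
  obtain ⟨a, ha, b, hb, rfl⟩ := h
  obtain ⟨c, hc, d, hd, rfl⟩ := h'
  exact ⟨c * a, K.mul_mem hc ha, b * d, K.mul_mem hb hd, by group⟩

theorem DCo.of_dc {K : Subgroup G} (hK : P.B ≤ K) {n g : G} (h : g ∈ dc P n) : DCo K n g := by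
  obtain ⟨a, ha, b, hb, rfl⟩ := mem_dc.1 h
  exact ⟨a, hK ha, b, hK hb, rfl⟩

theorem DCo.of_rel {K : Subgroup G} (hK : P.B ≤ K) {n n' : G} (h : Helper6.BN.Rel P n n') :
    DCo K n n' := DCo.of_dc hK h.mem_dc

theorem DCo.mul_left {K : Subgroup G} {a : G} (ha : a ∈ K) (x : G) : DCo K x (a * x) :=
  ⟨a, ha, 1, K.one_mem, by simp⟩

theorem DCo.mul_right {K : Subgroup G} {a : G} (ha : a ∈ K) (x : G) : DCo K x (x * a) :=
  ⟨1, K.one_mem, a, ha, by simp⟩

/-- left multiplication by `P_s` -/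
theorem par_mul_dc {s n h g : G} (hs : s ∈ P.S) (hn : n ∈ P.N) (hh : h ∈ P.parabolic {s})
    (hg : g ∈ dc P n) : h * g ∈ dc P n ∨ h * g ∈ dc P (s * n) := by
  rcases (mem_parabolic_singleton hs h).1 hh with hb | hd
  · left; exact mul_left_mem_dc hb hg
  · obtain ⟨a, ha, b, hb, rfl⟩ := mem_dc.1 hd
    have h1 : b * g ∈ dc P n := mul_left_mem_dc hb hg
    rcases T3_dc hs hn h1 with h2 | h2
    · right
      have := mul_left_mem_dc ha h2
      simpa [mul_assoc] using this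
    · left
      have := mul_left_mem_dc ha h2
      simpa [mul_assoc] using this

/-- right multiplication by `P_s` -/
theorem dc_mul_par {s n h g : G} (hs : s ∈ P.S) (hn : n ∈ P.N) (hh : h ∈ P.parabolic {s})
    (hg : g ∈ dc P n) : g * h ∈ dc P n ∨ g * h ∈ dc P (n * s) := by
  rcases (mem_parabolic_singleton hs h).1 hh with hb | hd
  · left; exact mul_right_mem_dc hb hg
  · obtain ⟨a, ha, b, hb, rfl⟩ := mem_dc.1 hd
    have h1 : g * a ∈ dc P n := mul_right_mem_dc ha hg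
    rcases T3_right_dc hs hn h1 with h2 | h2
    · right
      have := mul_right_mem_dc hb h2
      simpa [mul_assoc] using this
    · left
      have := mul_right_mem_dc hb h2
      simpa [mul_assoc] using this

theorem lev_cover (P : BNPair G) {s t : G} {m : ℕ} (hD : Dih P s t m) :
    (∀ g, ∃ i, 2 * i ≤ m ∧ ∃ h ∈ P.parabolic {s}, ∃ h' ∈ P.parabolic {s}, g = h * zz s t (2 * i) * h') ∧
    (∀ i i', 2 * i ≤ m → 2 * i' ≤ m → (∃ h ∈ P.parabolic {s}, ∃ h' ∈ P.parabolic {s},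
      zz s t (2 * i') = h * zz s t (2 * i) * h') → i = i') ∧
    (∀ i, 2 * i ≤ m → ∃ h ∈ P.parabolic {s}, ∃ h' ∈ P.parabolic {s}, (zz s t (2 * i))⁻¹ = h * zz s t (2 * i) * h') := by
  have hs := hD.hs
  have ht := hD.ht
  have hm2 := hD.two_le
  set K := P.parabolic {s} with hK
  have hBK : P.B ≤ K := B_le_parabolic _
  have hsK : s ∈ K := mem_parabolic_of_mem (Set.mem_singleton s)
  have hzN : ∀ j, zz s t j ∈ P.N := zz_mem_N hs ht
  have hmod1 : ∀ a b : ℕ, a + b = 2 * m + 1 → (a + b) % (2 * m) = 1 := by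
    intro a b hab
    rw [hab, Nat.add_mod_left, Nat.mod_eq_of_lt (by omega)]
  have hmod0 : ∀ a b : ℕ, a + b = 2 * m → (a + b) % (2 * m) = 0 := by
    intro a b hab
    rw [hab, Nat.mod_self]
  have hodd : ∀ i, zz s t (2 * i + 1) = s * zz s t (2 * i) := by
    intro i
    rw [zz_succ, lett_even _ _ (by simp)]
  -- small levels
  have small : ∀ j ≤ m, ∃ i, 2 * i ≤ m ∧ DCo K (zz s t (2 * i)) (zz s t j) := by
    intro j hj
    obtain ⟨i, rfl | rfl⟩ := Nat.even_or_odd' j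
    · exact ⟨i, hj, DCo.refl _ _⟩
    · refine ⟨i, by omega, ?_⟩
      rw [hodd]
      exact DCo.mul_left hsK _
  refine ⟨?_, ?_, ?_⟩
  · intro g
    obtain ⟨n, hn, hg⟩ := bruhat_exists (P := P) g
    obtain ⟨j, hj, hrel⟩ := hD.surj n hn
    have h1 : DCo K (zz s t j) g := (DCo.of_rel hBK hrel).trans (DCo.of_dc hBK hg)
    rcases le_or_gt j m with hjm | hjm
    · obtain ⟨i, hi, h2⟩ := small j hjm
      exact ⟨i, hi, h2.trans h1⟩
    · have h3 : Helper6.BN.Rel P (zz s t j * s) (zz s t (2 * m + 1 - j)) :=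
        hD.mul_s j _ (hmod1 _ _ (by omega))
      obtain ⟨i, hi, h2⟩ := small (2 * m + 1 - j) (by omega)
      have h4 : DCo K (zz s t (2 * m + 1 - j)) (zz s t j) :=
        ((DCo.mul_right hsK (zz s t j)).trans (DCo.of_rel hBK h3)).symm
      exact ⟨i, hi, (h2.trans h4).trans h1⟩
  · rintro i i' hi hi' ⟨h, hh, h', hh', e⟩
    set n := zz s t (2 * i) with hn
    have hnN : n ∈ P.N := hzN _
    have hsn : s * n = zz s t (2 * i + 1) := (hodd i).symm
    have hns : Helper6.BN.Rel P (n * s) (zz s t (2 * m + 1 - 2 * i)) :=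
      hD.mul_s _ _ (hmod1 _ _ (by omega))
    have hsns : Helper6.BN.Rel P (s * n * s) (zz s t (2 * m - 2 * i)) := by
      rw [hsn]
      exact hD.mul_s _ _ (hmod1 _ _ (by omega))
    -- the four possible cells
    have cells : ∃ x, (x = 2 * i ∨ x = 2 * i + 1 ∨ x = 2 * m + 1 - 2 * i ∨ x = 2 * m - 2 * i) ∧
        zz s t (2 * i') ∈ dc P (zz s t x) := by
      rw [e]
      rcases par_mul_dc hs hnN hh (self_mem_dc n) with h1 | h1
      · rcases dc_mul_par hs hnN hh' h1 with h2 | h2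
        · exact ⟨2 * i, Or.inl rfl, h2⟩
        · exact ⟨_, Or.inr (Or.inr (Or.inl rfl)), by rw [← hns.dc_eq]; exact h2⟩
      · rcases dc_mul_par hs (P.N.mul_mem (S_mem_N hs) hnN) hh' h1 with h2 | h2
        · exact ⟨_, Or.inr (Or.inl rfl), by rw [← hsn]; exact h2⟩
        · exact ⟨_, Or.inr (Or.inr (Or.inr rfl)), by rw [← hsns.dc_eq]; exact h2⟩
    obtain ⟨x, hx, hmem⟩ := cells
    have hmodeq : x ≡ 2 * i' [MOD 2 * m] := (hD.rel_iff _ _).1 (bruhat_unique (hzN x) (hzN _) hmem)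
    have hpar : x % 2 = (2 * i') % 2 := by
      have : x ≡ 2 * i' [MOD 2] := hmodeq.of_mul_right m
      exact this
    rcases hx with rfl | rfl | rfl | rfl
    · have := Nat.ModEq.eq_of_lt_of_lt hmodeq (by omega) (by omega)
      omega
    · omega
    · omega
    · rcases Nat.eq_zero_or_pos i with h0 | h0
      · subst h0
        have h3 : 0 ≡ 2 * i' [MOD 2 * m] := by
          have : 2 * m - 2 * 0 ≡ 0 [MOD 2 * m] := by simp [Nat.ModEq]
          exact this.symm.trans hmodeq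
        have := Nat.ModEq.eq_of_lt_of_lt h3 (by omega) (by omega)
        omega
      · have := Nat.ModEq.eq_of_lt_of_lt hmodeq (by omega) (by omega)
        omega
  · intro i hi
    have h1 : Helper6.BN.Rel P (zz s t (2 * i))⁻¹ (zz s t (2 * m - 2 * i)) :=
      hD.inv_even _ _ (by simp) (hmod0 _ _ (by omega))
    have h2 : Helper6.BN.Rel P (zz s t (2 * i + 1) * s) (zz s t (2 * m - 2 * i)) :=
      hD.mul_s _ _ (hmod1 _ _ (by omega))
    have h3 : DCo K (zz s t (2 * i)) (zz s t (2 * i + 1) * s) := by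
      rw [hodd]
      exact (DCo.mul_left hsK _).trans (DCo.mul_right hsK _)
    exact (h3.trans (DCo.of_rel hBK h2)).trans (DCo.of_rel hBK h1).symm

end Cfsg.Agent.Lib.Helper59.FH
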