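import Mathlib
import Cfsg.Agent.Lib.Helper99.SpxBase
import Cfsg.Agent.Lib.Helper94.ExtA

/-!
# S5664 farm, piece FORM
-/

set_option autoImplicit false

namespace Cfsg.Agent.Lib.Helper99.Spx

open Module
open LinearMap (BilinForm)
open Cfsg.Agent.Lib.Helper83.Ext
open Cfsg.Agent.Lib.Helper94 (IsIsom st st_apply st_isIsom alt_swap exists_move)

variable {F K V : Type*} [Field F] [Field K] [Algebra F K] [AddCommGroup V] [Module F V] [Module K V]
  [IsScalarTower F K V]

theorem exists_BK [FiniteDimensional F K] [FiniteDimensional K V] (f : BilinForm F V)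
    (hA : f.IsAlt) (hN : f.Nondegenerate) (hsa : ∀ (k : K) (x y : V), f (k • x) y = f x (k • y))
    (halt : ∀ (k : K) (v : V), f (k • v) v = 0) (ξ : K →ₗ[F] F) (hξ : ξ ≠ 0) :
    ∃ BK : BilinForm K V, BK.IsAlt ∧ BK.Nondegenerate ∧ fd BK ξ = f := by
  classical
  have hex : ∀ y : V, ∃ η : Dual K V, ∀ x, f x y = ξ (η x) := by
    intro y
    obtain ⟨η, hη⟩ := Cfsg.Agent.Lib.Helper94.Ext.exists_dual_comp ξ hξ (f.flip y)
    exact ⟨η, fun x => by rw [← hη]; rfl⟩
  choose η hη using hex
  have hkey : ∀ (t : K) (x y : V), ξ (t * η y x) = f (t • x) y := by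
    intro t x y
    rw [hη, map_smul, smul_eq_mul]
  let BK : BilinForm K V := LinearMap.mk₂ K (fun x y => η y x)
    (by intro x x' y; exact map_add _ _ _)
    (by intro k x y; exact map_smul _ _ _)
    (by
      intro x y y'
      apply eq_of_xi hξ
      intro t
      rw [mul_add, map_add, hkey, hkey, hkey, map_add])
    (by
      intro k x y
      apply eq_of_xi hξ
      intro t
      rw [smul_eq_mul, hkey, ← hsa, ← mul_assoc, hkey, smul_smul, mul_comm k t])
  have hBK : ∀ x y, BK x y = η y x := fun _ _ => rfl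
  refine ⟨BK, ?_, ⟨?_, ?_⟩, ?_⟩
  · intro v
    apply eq_zero_of_xi hξ
    intro t
    rw [hBK, hkey, halt]
  · intro x hx
    apply hN.1 x
    intro y
    rw [hη, ← hBK, hx, map_zero]
  · intro y hy
    apply hN.2 y
    intro x
    rw [hη, ← hBK, hy, map_zero]
  · ext x y
    rw [fd_apply, hBK, ← hη]

end Cfsg.Agent.Lib.Helper99.Spx
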