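import Mathlib
import Cfsg.Agent.Lib.Helper99.SpxBase

/-!
# S5664 farm, piece HUA
-/

set_option autoImplicit false

namespace Cfsg.Agent.Lib.Helper99.Spx

open Module
open LinearMap (BilinForm)

variable {F K : Type*} [Field F] [Field K] [Algebra F K]

theorem exists_inv_not_mem [Finite K] (hF : ∀ l : F, l = 0 ∨ l = 1) (hr : (finrank F K).Prime)
    (hr3 : 3 ≤ finrank F K) (φ : K →ₗ[F] F) (hφ : φ ≠ 0) (h1 : φ 1 = 0) :
    ∃ t : K, t ≠ 0 ∧ φ t⁻¹ = 0 ∧ φ t ≠ 0 := by
  classical
  by_contra hcon
  push Not at hcon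
  have hfd : Module.Finite F K := Module.finite_of_finrank_pos (by omega)
  have hinv : ∀ a : K, φ a = 0 → φ a⁻¹ = 0 := by
    intro a ha
    by_cases ha0 : a = 0
    · rw [ha0, inv_zero, map_zero]
    · exact hcon a⁻¹ (inv_ne_zero ha0) (by rwa [inv_inv])
  have h2F : (1 : F) + 1 = 0 := by
    rcases hF (1 + 1) with h | h
    · exact h
    · exfalso
      have : (1 : F) = 0 := by linear_combination h
      exact one_ne_zero this
  have h2K : ∀ x : K, x + x = 0 := by
    intro x
    have : (1 : K) + 1 = 0 := by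
      have := congrArg (algebraMap F K) h2F
      simpa using this
    linear_combination x * this
  -- Hua's identity
  have hua : ∀ a b : K, φ a = 0 → φ b = 0 → φ (a * a * b) = 0 := by
    intro a b ha hb
    by_cases ha0 : a = 0
    · simp [ha0]
    by_cases hb0 : b = 0
    · simp [hb0]
    by_cases hab : a * b = 1
    · rw [mul_assoc, hab, mul_one]; exact ha
    have hc0 : b⁻¹ - a ≠ 0 := by
      intro h
      apply hab
      have : b⁻¹ = a := sub_eq_zero.1 h
      rw [← this, inv_mul_cancel₀ hb0]
    have hc : φ (b⁻¹ - a) = 0 := by rw [map_sub, hinv b hb, ha, sub_zero]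
    have hd : φ (a⁻¹ + (b⁻¹ - a)⁻¹) = 0 := by rw [map_add, hinv a ha, hinv _ hc, add_zero]
    have hdi : (a⁻¹ + (b⁻¹ - a)⁻¹)⁻¹ = a - a * a * b := by
      apply inv_eq_of_mul_eq_one_right
      have e1 : (b⁻¹ - a)⁻¹ * (1 - a * b) = b := by
        have : 1 - a * b = (b⁻¹ - a) * b := by
          rw [sub_mul, inv_mul_cancel₀ hb0]
        rw [this, ← mul_assoc, inv_mul_cancel₀ hc0, one_mul]
      calc (a⁻¹ + (b⁻¹ - a)⁻¹) * (a - a * a * b)
          = (a⁻¹ * a) * (1 - a * b) + ((b⁻¹ - a)⁻¹ * (1 - a * b)) * a := by ring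
        _ = 1 := by rw [inv_mul_cancel₀ ha0, e1]; ring
    have := hinv _ hd
    rw [hdi, map_sub, ha, zero_sub, neg_eq_zero] at this
    exact this
  -- the multiplier algebra of `ker φ`
  let E : Subalgebra F K :=
    { carrier := {e | ∀ s, φ s = 0 → φ (e * s) = 0}
      mul_mem' := by
        intro e e' he he' s hs
        rw [mul_assoc]
        exact he _ (he' s hs)
      add_mem' := by
        intro e e' he he' s hs
        rw [add_mul, map_add, he s hs, he' s hs, add_zero]
      algebraMap_mem' := by
        intro l s hs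
        rw [← Algebra.smul_def, map_smul, hs, smul_zero] }
  have hEmem : ∀ e, e ∈ E ↔ ∀ s, φ s = 0 → φ (e * s) = 0 := fun _ => Iff.rfl
  have hsimple := Subalgebra.isSimpleOrder_of_finrank_prime F K hr
  have hEbot : E = ⊥ := by
    rcases eq_bot_or_eq_top E with h | h
    · exact h
    · exfalso
      apply hφ
      ext x
      have hx : x ∈ E := by rw [h]; exact Algebra.mem_top
      have := (hEmem x).1 hx 1 h1
      simpa using this
  have hH : ∀ a : K, φ a = 0 → a = 0 ∨ a = 1 := by
    intro a ha
    have haE : a * a ∈ E := (hEmem _).2 (fun s hs => hua a s ha hs)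
    rw [hEbot, Algebra.mem_bot] at haE
    obtain ⟨l, hl⟩ := haE
    rcases hF l with rfl | rfl
    · left
      rw [map_zero] at hl
      exact mul_self_eq_zero.1 hl.symm
    · right
      rw [map_one] at hl
      have : (a - 1) * (a - 1) = 0 := by
        have := h2K a
        linear_combination (-1 : K) * hl - this + h2K 1
      exact sub_eq_zero.1 (mul_self_eq_zero.1 this)
  have hker : LinearMap.ker φ ≤ Submodule.span F {(1 : K)} := by
    intro a ha
    rcases hH a ha with rfl | rfl
    · exact Submodule.zero_mem _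
    · exact Submodule.subset_span rfl
  have h3 : finrank F (LinearMap.ker φ) ≤ 1 :=
    (Submodule.finrank_mono hker).trans (finrank_span_singleton (one_ne_zero)).le
  have h4 := LinearMap.finrank_range_add_finrank_ker φ
  have h5 : finrank F (LinearMap.range φ) ≤ 1 := by
    have := Submodule.finrank_le (LinearMap.range φ)
    simpa using this
  omega

end Cfsg.Agent.Lib.Helper99.Spx
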