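import Mathlib
import Cfsg.Agent.Lib.Helper99.SpxBase
import Cfsg.Agent.Lib.Helper1.SpxWQ
import Cfsg.Agent.Lib.Helper59.SpxHUA

/-!
# S5664 farm, piece R
-/

set_option autoImplicit false

namespace Cfsg.Agent.Lib.Helper99.Spx

open Module
open LinearMap (BilinForm)
open Cfsg.Agent.Lib.Helper83.Ext
open Cfsg.Agent.Lib.Helper94 (IsIsom st st_apply st_isIsom alt_swap exists_move)

variable {F K V : Type*} [Field F] [Field K] [Algebra F K] [AddCommGroup V] [Module F V] [Module K V]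
  [IsScalarTower F K V]
variable {BK : BilinForm K V} {ξ : K →ₗ[F] F} {G : Subgroup (V ≃ₗ[F] V)}

theorem hasSt_of_out_of_two [Finite K] [FiniteDimensional K V] (hyp : Hyp BK ξ G) {v : V} {n₀ : K}
    (h : Out BK ξ G v n₀) (hF : ∀ l : F, l = 0 ∨ l = 1) (hr : (finrank F K).Prime)
    (hr3 : 3 ≤ finrank F K) : HasSt BK ξ G := by
  classical
  obtain ⟨hv, hn0, hξn, -⟩ := id h
  have h2F : (1 : F) + 1 = 0 := by
    rcases hF (1 + 1) with h | h
    · exact h
    · exfalso
      have : (1 : F) = 0 := by linear_combination h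
      exact one_ne_zero this
  have h2K : ∀ x : K, x + x = 0 := by
    intro x
    have : (1 : K) + 1 = 0 := by
      have := congrArg (algebraMap F K) h2F
      simpa using this
    linear_combination x * this
  let φ : K →ₗ[F] F := ξ ∘ₗ LinearMap.mulLeft F n₀
  have hφa : ∀ t, φ t = ξ (n₀ * t) := fun _ => rfl
  have hφ : φ ≠ 0 := by
    obtain ⟨t, ht⟩ := exists_xi_ne hyp.xi hn0
    intro h0
    apply ht
    have := LinearMap.congr_fun h0 t
    rw [hφa, mul_comm] at this
    simpa using this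
  have hφ1 : φ 1 = 0 := by rw [hφa, mul_one]; exact hξn
  obtain ⟨t, ht0, ht1, ht2⟩ := exists_inv_not_mem hF hr hr3 φ hφ hφ1
  rw [hφa] at ht1 ht2
  have m1 := W_mem hyp h 1 t
  have m2 := T_scale hyp hv ht0 (W_mem hyp h 1 t⁻¹)
  have m3 := T_add hyp.alt m1 m2
  refine ⟨v, ξ (n₀ * t), hv, ht2, ?_⟩
  have e : Wr ξ n₀ 1 t + LinearMap.mulLeft F t ∘ₗ Wr ξ n₀ 1 t⁻¹ ∘ₗ LinearMap.mulLeft F t
      = ξ (n₀ * t) • br ξ 1 := by
    ext b
    simp only [LinearMap.add_apply, LinearMap.comp_apply, LinearMap.mulLeft_apply, Wr_apply,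
      LinearMap.smul_apply, br_apply, ht1, one_mul, one_pow, mul_zero, zero_mul, add_zero]
    rw [← mul_assoc, inv_mul_cancel₀ ht0, one_mul, mul_add, mul_smul_comm, mul_smul_comm,
      mul_inv_cancel₀ ht0, mul_one, add_smul, smul_smul]
    have a1 := h2K (ξ b • t)
    have a2 := h2K (ξ (t * b) • (1 : K))
    linear_combination a1 + a2
  rw [← e]
  exact m3

end Cfsg.Agent.Lib.Helper99.Spx
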