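import Mathlib
import Cfsg.Agent.Lib.Helper74.SymAlgDefs

/-!
# Symmetric algebras, piece R1 (helper59, for S4648)
-/

set_option autoImplicit false

namespace Cfsg.Agent.Lib.Helper59.SymAlgR1

open Cfsg.Agent.Lib.Helper74.SymAlg Module

variable {F A : Type*} [Field F] [Ring A] [Algebra F A] [FiniteDimensional F A]

theorem R1 [IsAlgClosed F] [Nontrivial A]
    (h : ∀ t₁ ∈ traceForms F A, ∀ t₂ ∈ traceForms F A, (∀ a, IsNilpotent a → t₁ a = 0) →
      (∀ a, IsNilpotent a → t₂ a = 0) →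
      ∃ c₁ c₂ : F, (c₁ ≠ 0 ∨ c₂ ≠ 0) ∧ c₁ • t₁ + c₂ • t₂ = 0) :
    ∃ (n : ℕ) (φ : A →ₐ[F] Matrix (Fin n) (Fin n) F), 0 < n ∧ Function.Surjective φ ∧
      (∀ x, φ x = 0 ↔ x ∈ Ring.jacobson A) := by
  have hart : IsArtinianRing A := IsArtinianRing.of_finite F A
  obtain ⟨l, d, hd, ⟨e⟩⟩ :=
    IsSemisimpleRing.exists_algEquiv_pi_matrix_of_isAlgClosed F (A ⧸ Ring.jacobson A)
  let ψ : A →ₐ[F] (Π i : Fin l, Matrix (Fin (d i)) (Fin (d i)) F) :=
    e.toAlgHom.comp (Ideal.Quotient.mkₐ F (Ring.jacobson A))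
  have hψs : Function.Surjective ψ := e.surjective.comp Ideal.Quotient.mk_surjective
  have hψk : ∀ x, ψ x = 0 ↔ x ∈ Ring.jacobson A := by
    intro x
    change e (Ideal.Quotient.mk _ x) = 0 ↔ _
    rw [map_eq_zero_iff e e.injective, Ideal.Quotient.eq_zero_iff_mem]
  have h1J : (1 : A) ∉ Ring.jacobson A :=
    fun h1 => (Ring.jacobson_lt_top A).ne ((Ideal.eq_top_iff_one _).mpr h1)
  have hl0 : l ≠ 0 := by
    rintro rfl
    exact h1J ((hψk 1).mp (Subsingleton.elim _ _))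
  let t : Fin l → A →ₗ[F] F := fun i =>
    (Matrix.traceLinearMap (Fin (d i)) F F) ∘ₗ (LinearMap.proj i) ∘ₗ ψ.toLinearMap
  have ht : ∀ i x, t i x = Matrix.trace (ψ x i) := fun i x => rfl
  have htm : ∀ i, t i ∈ traceForms F A := by
    intro i a b
    rw [ht, ht, map_mul, map_mul, Pi.mul_apply, Pi.mul_apply, Matrix.trace_mul_comm]
  have htn : ∀ i a, IsNilpotent a → t i a = 0 := by
    intro i a ha
    rw [ht]
    have h1 : IsNilpotent (ψ a i) := by
      obtain ⟨k, hk⟩ := ha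
      refine ⟨k, ?_⟩
      have := congrFun (congrArg ψ hk) i
      rw [map_pow, map_zero] at this
      simpa using this
    exact (Matrix.isNilpotent_trace_of_isNilpotent h1).eq_zero
  choose a ha using fun i : Fin l => hψs (Pi.single i (Matrix.single 0 0 1))
  have hta : ∀ i j, t i (a j) = if i = j then 1 else 0 := by
    intro i j
    rw [ht, ha]
    by_cases hij : i = j
    · subst hij
      rw [Pi.single_eq_same, Matrix.trace_single_eq_same, if_pos rfl]
    · rw [Pi.single_eq_of_ne hij, if_neg hij]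
      simp
  let i0 : Fin l := ⟨0, Nat.pos_of_ne_zero hl0⟩
  have hi0 : ∀ j : Fin l, j = i0 := by
    intro j
    by_contra hj
    obtain ⟨c₁, c₂, hc, hsum⟩ := h (t i0) (htm i0) (t j) (htm j) (htn i0) (htn j)
    have h1 := congrArg (fun f : Module.Dual F A => f (a i0)) hsum
    have h2 := congrArg (fun f : Module.Dual F A => f (a j)) hsum
    have hj' : ¬ i0 = j := fun h => hj h.symm
    simp [hta, hj, hj'] at h1 h2
    rcases hc with hc | hc
    · exact hc h1
    · exact hc h2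
  have hk : ∀ x, ψ x i0 = 0 ↔ x ∈ Ring.jacobson A := by
    intro x
    rw [← hψk]
    constructor
    · intro hx
      funext j
      rw [hi0 j, hx]; rfl
    · intro hx
      rw [hx]; rfl
  refine ⟨d i0, (Pi.evalAlgHom F _ i0).comp ψ, Nat.pos_of_ne_zero (hd i0).out, ?_, hk⟩
  intro M
  obtain ⟨m, hm⟩ := hψs (Pi.single i0 M)
  refine ⟨m, ?_⟩
  change ψ m i0 = M
  rw [hm, Pi.single_eq_same]

end Cfsg.Agent.Lib.Helper59.SymAlgR1
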