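import Mathlib
import Cfsg.Agent.Lib.Helper74.SymAlgCen

/-!
# Symmetric algebras, piece T4 (helper59, for S4648)
-/

set_option autoImplicit false

namespace Cfsg.Agent.Lib.Helper59.SymAlgT4

open Cfsg.Agent.Lib.Helper74.SymAlg Module

variable {F A : Type*} [Field F] [Ring A] [Algebra F A] [FiniteDimensional F A]

omit [FiniteDimensional F A] in
/-- the element `∑ k, a k i * x * a j k` centralizes the matrix units. -/
theorem coef_mem {n : ℕ} (a : Fin n → Fin n → A)
    (hmul : ∀ i j k l, a i j * a k l = if j = k then a i l else 0) (i j : Fin n) (x : A) :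
    ∑ k, a k i * x * a j k ∈ cenU F a := by
  rw [Subalgebra.mem_centralizer_iff]
  rintro _ ⟨⟨r, s⟩, rfl⟩
  show a r s * ∑ k, a k i * x * a j k = (∑ k, a k i * x * a j k) * a r s
  rw [Finset.mul_sum, Finset.sum_mul]
  rw [Finset.sum_eq_single s, Finset.sum_eq_single r]
  · rw [← mul_assoc, ← mul_assoc, hmul, if_pos rfl, mul_assoc (a r i * x), hmul, if_pos rfl]
  · intro k _ hk
    rw [mul_assoc (a k i * x), hmul, if_neg hk, mul_zero]
  · simp
  · intro k _ hk
    rw [← mul_assoc, ← mul_assoc, hmul, if_neg (Ne.symm hk), zero_mul, zero_mul]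
  · simp

theorem T4 {n : ℕ} (a : Fin n → Fin n → A)
    (hmul : ∀ i j k l, a i j * a k l = if j = k then a i l else 0) (hone : ∑ i, a i i = 1)
    (i₀ : Fin n) {lam : A →ₗ[F] F} (h : IsSymForm lam) :
    IsSymForm ((lam ∘ₗ LinearMap.mulRight F (a i₀ i₀)) ∘ₗ (cenU F a).val.toLinearMap) := by
  have hval : ∀ c : cenU F a,
      ((lam ∘ₗ LinearMap.mulRight F (a i₀ i₀)) ∘ₗ (cenU F a).val.toLinearMap) c
        = lam ((c : A) * a i₀ i₀) := fun c => rfl
  have hcomm : ∀ (c : cenU F a) (r s : Fin n), a r s * (c : A) = (c : A) * a r s := by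
    intro c r s
    exact (Subalgebra.mem_centralizer_iff F).1 c.2 _ ⟨(r, s), rfl⟩
  constructor
  · intro c c'
    rw [hval, hval]
    show lam ((c : A) * (c' : A) * a i₀ i₀) = lam ((c' : A) * (c : A) * a i₀ i₀)
    rw [mul_assoc, h.symm, mul_assoc, hcomm c, mul_assoc]
  · intro c hc
    have hce : (c : A) * a i₀ i₀ = 0 := by
      apply h.nondeg
      intro x
      have h1 := hc ⟨_, coef_mem (F := F) a hmul i₀ i₀ x⟩
      rw [hval] at h1
      have h2 : (∑ k, a k i₀ * x * a i₀ k) * a i₀ i₀ = a i₀ i₀ * x * a i₀ i₀ := by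
        rw [Finset.sum_mul, Finset.sum_eq_single i₀]
        · rw [mul_assoc (a i₀ i₀ * x), hmul, if_pos rfl]
        · intro k _ hk
          rw [mul_assoc (a k i₀ * x), hmul, if_neg hk, mul_zero]
        · simp
      have h3 : lam ((c : A) * (∑ k, a k i₀ * x * a i₀ k) * a i₀ i₀) = 0 := h1
      rw [mul_assoc, h2] at h3
      -- `lam (c * (e * x * e)) = lam (c * e * x)`
      have h4 : (c : A) * (a i₀ i₀ * x * a i₀ i₀) = ((c : A) * a i₀ i₀ * x) * a i₀ i₀ := by
        simp only [mul_assoc]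
      rw [h4, h.symm, ← mul_assoc, ← mul_assoc, hcomm c, mul_assoc (c : A), hmul, if_pos rfl] at h3
      exact h3
    apply Subtype.ext
    show (c : A) = 0
    calc (c : A) = (c : A) * ∑ k, a k k := by rw [hone, mul_one]
      _ = ∑ k, a k i₀ * ((c : A) * a i₀ i₀) * a i₀ k := by
        rw [Finset.mul_sum]
        apply Finset.sum_congr rfl
        intro k _
        rw [← mul_assoc, hcomm c, mul_assoc (c : A), hmul, if_pos rfl, mul_assoc, hmul, if_pos rfl]
      _ = 0 := by simp [hce]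

end Cfsg.Agent.Lib.Helper59.SymAlgT4
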