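import Mathlib
import Cfsg.Agent.Lib.Helper74.SymAlgCen

/-!
# Symmetric algebras, piece T5 (helper59, for S4648)
-/

set_option autoImplicit false

namespace Cfsg.Agent.Lib.Helper59.SymAlgT5

open Cfsg.Agent.Lib.Helper74.SymAlg Module

variable {F A : Type*} [Field F] [Ring A] [Algebra F A] [FiniteDimensional F A]

/-- elements of the Jacobson radical of a finite-dimensional algebra are nilpotent -/
theorem isNilpotent_of_mem_jacobson (F : Type*) {B : Type*} [Field F] [Ring B] [Algebra F B]
    [FiniteDimensional F B] {x : B} (hx : x ∈ Ring.jacobson B) : IsNilpotent x := by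
  have : IsArtinianRing B := IsArtinianRing.of_finite F B
  have hnil : IsNilpotent (Ring.jacobson B) := IsSemiprimaryRing.isNilpotent
  obtain ⟨k, hk⟩ := hnil
  refine ⟨k, ?_⟩
  have := Ideal.pow_mem_pow hx k
  rw [hk] at this
  simpa using this

theorem T5 {n : ℕ} (a : Fin n → Fin n → A)
    (hmul : ∀ i j k l, a i j * a k l = if j = k then a i l else 0) (hone : ∑ i, a i i = 1)
    (i₀ : Fin n) (φ : A →ₐ[F] Matrix (Fin n) (Fin n) F)
    (hφ : ∀ i j, φ (a i j) = Matrix.single i j 1) (hJ : ∀ x, φ x = 0 ↔ x ∈ Ring.jacobson A) :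
    ∃ π : cenU F a →ₐ[F] F, ∀ x, π x = 0 ↔ x ∈ Ring.jacobson (cenU F a) := by
  have hcomm : ∀ (c : cenU F a) (r s : Fin n), a r s * (c : A) = (c : A) * a r s := by
    intro c r s
    exact (Subalgebra.mem_centralizer_iff F).1 c.2 _ ⟨(r, s), rfl⟩
  have hscal : ∀ c : cenU F a, φ (c : A) = Matrix.scalar (Fin n) (φ (c : A) i₀ i₀) := by
    intro c
    have h1 : φ (c : A) ∈ Set.range (Matrix.scalar (Fin n)) := by
      apply Matrix.mem_range_scalar_of_commute_single
      intro i j _
      show Matrix.single i j 1 * φ (c : A) = φ (c : A) * Matrix.single i j 1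
      rw [← hφ, ← map_mul, ← map_mul, hcomm]
    obtain ⟨r, hr⟩ := h1
    rw [← hr]
    simp
  let π : cenU F a →ₐ[F] F :=
    { toFun := fun c => φ (c : A) i₀ i₀
      map_one' := by simp
      map_mul' := by
        intro c c'
        show φ ((c : A) * (c' : A)) i₀ i₀ = _
        rw [map_mul, hscal c']
        simp
      map_zero' := by simp
      map_add' := by
        intro c c'
        show φ ((c : A) + (c' : A)) i₀ i₀ = _
        rw [map_add]; rfl
      commutes' := by
        intro r
        show φ (algebraMap F A r) i₀ i₀ = _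
        rw [AlgHom.commutes]
        simp [Matrix.algebraMap_matrix_apply] }
  have hπ : ∀ c : cenU F a, π c = φ (c : A) i₀ i₀ := fun _ => rfl
  refine ⟨π, fun x => ⟨fun hx => ?_, fun hx => ?_⟩⟩
  · rw [← Ideal.jacobson_bot, Ideal.mem_jacobson_iff]
    intro y
    have h0 : π (y * x) = 0 := by rw [map_mul, hx, mul_zero]
    have h1 : φ ((y * x : cenU F a) : A) = 0 := by
      rw [hscal, ← hπ, h0]; simp
    have h2 : IsNilpotent ((y * x : cenU F a) : A) :=
      isNilpotent_of_mem_jacobson F ((hJ _).1 h1)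
    have h3 : IsNilpotent (y * x : cenU F a) := by
      obtain ⟨k, hk⟩ := h2
      refine ⟨k, Subtype.ext ?_⟩
      simpa using hk
    obtain ⟨u, hu⟩ := h3.isUnit_one_add
    refine ⟨(u⁻¹ : (cenU F a)ˣ), ?_⟩
    have h4 : ((u⁻¹ : (cenU F a)ˣ) : cenU F a) * (1 + y * x) = 1 := by
      rw [← hu]; simp
    have h5 : ((u⁻¹ : (cenU F a)ˣ) : cenU F a) * y * x + ((u⁻¹ : (cenU F a)ˣ) : cenU F a) - 1 = 0 := by
      rw [mul_add, mul_one, ← mul_assoc] at h4
      rw [add_comm, h4, sub_self]
    rw [h5]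
    exact Ideal.zero_mem _
  · have h1 : IsNilpotent x := isNilpotent_of_mem_jacobson F hx
    exact (h1.map π).eq_zero

end Cfsg.Agent.Lib.Helper59.SymAlgT5
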