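import Mathlib
import Cfsg.Agent.Lib.Helper15.Ward.Defs
import Cfsg.Prelude.Def_Transfer

/-!
# Ward's theorem (S3796), piece C: from the ambient form to the statement
-/

set_option autoImplicit false

namespace Cfsg.Agent.Lib.Helper59.WardC

open Subgroup Cfsg.Agent.Lib.Helper88 Cfsg.Agent.Lib.Helper15.Ward

universe u

theorem of_ambient {G : Type u} [Group G] [Finite G] (hG : Group.IsSolvable G) {p : ℕ}
    (hp : p.Prime)
    (A : Subgroup (MulAut G)) (hA : Cfsg.IsElementaryAbelian p A) (hcard : Nat.card A = p ^ 2)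
    (hfpf : ∀ g : G, (∀ a ∈ A, a g = g) → g = 1)
    (hward : ∀ (Γ : Type u) [Group Γ] [Finite Γ] (G' A' : Subgroup Γ), Hyp p G' A' → Meta G') :
    ∃ F : Fin (2 + 1) → Subgroup G, F 0 = ⊥ ∧ F (Fin.last 2) = ⊤ ∧ Monotone F ∧
      (∀ i, (F i).Normal) ∧
      ∀ i : Fin 2, ∃ k : ℕ, (F i.succ).lowerCentralSeries k ≤ F i.castSucc := by
  classical
  let Γ := G ⋊[A.subtype] A
  let il : G →* Γ := SemidirectProduct.inl
  let ir : A →* Γ := SemidirectProduct.inr
  have hil : Function.Injective il := SemidirectProduct.inl_injective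
  have hir : Function.Injective ir := SemidirectProduct.inr_injective
  have hfinΓ : Finite Γ := Finite.of_equiv _ SemidirectProduct.equivProd.symm
  let G' : Subgroup Γ := il.range
  let A' : Subgroup Γ := ir.range
  have hHyp : Hyp p G' A' := by
    refine
      { normal := ?_
        sup := ?_
        sol := ?_
        comm := ?_
        exp := ?_
        card := ?_
        fix := ?_ }
    · have : G' = (SemidirectProduct.rightHom : Γ →* A).ker := SemidirectProduct.range_inl_eq_ker_rightHom
      rw [this]; infer_instance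
    · rw [eq_top_iff]
      intro x _
      rw [← SemidirectProduct.inl_left_mul_inr_right x]
      exact mul_mem ((le_sup_left : G' ≤ G' ⊔ A') ⟨_, rfl⟩) ((le_sup_right : A' ≤ G' ⊔ A') ⟨_, rfl⟩)
    · exact Group.isSolvable_of_surjective (il.rangeRestrict_surjective)
    · rintro _ ⟨x, rfl⟩ _ ⟨y, rfl⟩
      have := hA.1
      rw [← map_mul, ← map_mul, mul_comm' x y]
    · rintro _ ⟨x, rfl⟩
      rw [← map_pow]
      have : x ^ p = 1 := Subtype.ext (by simpa using hA.2 x x.2)
      rw [this, map_one]
    · have : Nat.card A' = Nat.card A :=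
        (Nat.card_congr (MonoidHom.ofInjective hir).toEquiv).symm
      rw [this, hcard]
    · rw [eq_bot_iff]
      rintro _ ⟨⟨g, rfl⟩, hc⟩
      have hg : g = 1 := by
        apply hfpf
        intro a ha
        have h1 := mem_centralizer_iff.1 hc (ir ⟨a, ha⟩) ⟨_, rfl⟩
        have h2 : il (a g) = ir ⟨a, ha⟩ * il g * (ir ⟨a, ha⟩)⁻¹ := by
          rw [← map_inv]
          exact (SemidirectProduct.inl_aut (φ := A.subtype) ⟨a, ha⟩ g)
        apply hil
        rw [h2, h1, mul_inv_cancel_right]
      rw [hg, map_one]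
      exact one_mem _
  obtain ⟨F', hF'n, hF'G, ⟨k, hk⟩, ⟨l, hl⟩⟩ := hward Γ G' A' hHyp
  refine ⟨![⊥, F'.comap il, ⊤], rfl, rfl, ?_, ?_, ?_⟩
  · intro i j hij
    fin_cases i <;> fin_cases j <;> simp at hij ⊢
  · intro i
    fin_cases i
    · show (⊥ : Subgroup G).Normal
      infer_instance
    · show (F'.comap il).Normal
      exact hF'n.comap _
    · show (⊤ : Subgroup G).Normal
      infer_instance
  · intro i
    fin_cases i
    · refine ⟨k, ?_⟩
      show (F'.comap il).lowerCentralSeries k ≤ ⊥
      have h1 : ((F'.comap il).lowerCentralSeries k).map il ≤ ⊥ := by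
        rw [map_lowerCentralSeries, ← hk]
        apply lowerCentralSeries_mono
        exact Subgroup.map_comap_le _ _
      intro x hx
      have := h1 (Subgroup.mem_map_of_mem il hx)
      rw [mem_bot] at this ⊢
      exact hil (by rw [this, map_one])
    · refine ⟨l, ?_⟩
      show (⊤ : Subgroup G).lowerCentralSeries l ≤ F'.comap il
      rw [← Subgroup.map_le_iff_le_comap, map_lowerCentralSeries, ← MonoidHom.range_eq_map]
      exact hl

end Cfsg.Agent.Lib.Helper59.WardC
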