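import Mathlib
import Cfsg.Agent.Lib.Helper15.Ward.Defs
import Cfsg.Agent.Lib.Helper15.Ward.Core
import Cfsg.Agent.Lib.Helper7.WardB
import Cfsg.Agent.Lib.Helper25.NilpotentCoprime

/-!
# Ward's theorem (S3796), piece G: `star`
-/

set_option autoImplicit false

namespace Cfsg.Agent.Lib.Helper59.Ward

open Subgroup Cfsg.Agent.Lib.Helper88 Cfsg.Agent.Lib.Helper15.Ward

theorem dvd_card_of_ne_bot {Γ : Type*} [Group Γ] [Finite Γ] {q : ℕ} [Fact q.Prime] {Q : Subgroup Γ}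
    (hQ : IsPGroup q Q) (hne : Q ≠ ⊥) : q ∣ Nat.card Q := by
  rcases hQ.card_eq_or_dvd with h | h
  · exact absurd (Subgroup.card_eq_one.1 h) hne
  · exact h

theorem not_dvd_card_of_isPGroup {Γ : Type*} [Group Γ] [Finite Γ] {q s : ℕ} (hq : q.Prime)
    (hs : s.Prime) (hsq : s ≠ q) {Q : Subgroup Γ} (hQ : IsPGroup q Q) : ¬ s ∣ Nat.card Q := by
  have : Fact q.Prime := ⟨hq⟩
  obtain ⟨n, hn⟩ := IsPGroup.iff_card.1 hQ
  rw [hn]
  intro hd
  exact hsq ((Nat.prime_dvd_prime_iff_eq hs hq).1 (hs.dvd_of_dvd_pow hd))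

theorem mem_normalizer_commutator {Γ : Type*} [Group Γ] {H K : Subgroup Γ} {x : Γ}
    (hH : x ∈ normalizer (H : Set Γ)) (hK : x ∈ normalizer (K : Set Γ)) :
    x ∈ normalizer ((⁅H, K⁆ : Subgroup Γ) : Set Γ) := by
  have key : ∀ y : Γ, y ∈ normalizer (H : Set Γ) → y ∈ normalizer (K : Set Γ) →
      ∀ z ∈ ⁅H, K⁆, y * z * y⁻¹ ∈ ⁅H, K⁆ := by
    intro y hyH hyK z hz
    have h1 : (⁅H, K⁆).map (MulAut.conj y).toMonoidHom ≤ ⁅H, K⁆ := by
      rw [Subgroup.map_commutator]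
      apply commutator_mono
      · rintro _ ⟨w, hw, rfl⟩
        exact (mem_normalizer_iff.1 hyH w).1 hw
      · rintro _ ⟨w, hw, rfl⟩
        exact (mem_normalizer_iff.1 hyK w).1 hw
    exact h1 ⟨z, hz, rfl⟩
  rw [mem_normalizer_iff]
  intro z
  constructor
  · exact key x hH hK z
  · intro hz
    have := key x⁻¹ (inv_mem hH) (inv_mem hK) _ hz
    simpa [mul_assoc] using this

theorem star {V : Type*} [CommGroup V] [Finite V] {p r : ℕ} [Fact p.Prime] [Fact r.Prime]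
    (hV : IsPGroup r V) (X A E : Subgroup (MulAut V))
    (hAX : A ≤ normalizer (X : Set (MulAut V))) (hAc : ∀ x ∈ A, ∀ y ∈ A, x * y = y * x)
    (hAp : ∀ x ∈ A, x ^ p = 1) (hA2 : Nat.card A = p ^ 2) (hpX : ¬ p ∣ Nat.card X)
    (hfix : X ⊓ centralizer (A : Set (MulAut V)) = ⊥)
    (hnil : ∀ a ∈ A, a ≠ 1 → Group.IsNilpotent ↥(X ⊓ centralizer {a}))
    (hcent : ∀ a ∈ A, a ≠ 1 → ∀ y ∈ X ⊓ centralizer {a}, ¬ r ∣ orderOf y →
      ∀ v : V, a v = v → y v = v)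
    (hOr : ∀ R : Subgroup (MulAut V), R ≤ X → X ≤ normalizer (R : Set (MulAut V)) →
      A ≤ normalizer (R : Set (MulAut V)) → IsPGroup r R → R = ⊥)
    (hEX : E ≤ X) (hXE : X ≤ normalizer (E : Set (MulAut V)))
    (hAE : A ≤ normalizer (E : Set (MulAut V)))
    (hE : ∃ k, E.lowerCentralSeries k = ⊥) (hXE' : ∃ k, X.lowerCentralSeries k ≤ E) :
    ∃ k, X.lowerCentralSeries k = ⊥ := by
  classical
  have hp : p.Prime := Fact.out
  have hr : r.Prime := Fact.out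
  by_contra hX
  obtain ⟨s, q, S, Q, hs, hq, hsq, hS, hQ, hSX, hQE, hAS, hAQ, hXQ, hSQ⟩ :=
    Cfsg.Agent.Lib.Helper7.Ward.exists_bad_pair X A E
      (Cfsg.Agent.Lib.Helper22.isPGroup_of_pow_eq_one hAp) hpX hAX hEX hXE hAE hE hXE' hX
  have hsF : Fact s.Prime := ⟨hs⟩
  have hqF : Fact q.Prime := ⟨hq⟩
  have hQX : Q ≤ X := hQE.trans hEX
  have hQ1 : Q ≠ ⊥ := by
    rintro rfl
    apply hSQ
    intro x _
    rw [mem_centralizer_iff]
    intro y hy
    rw [SetLike.mem_coe, mem_bot] at hy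
    rw [hy, one_mul, mul_one]
  have hS1 : S ≠ ⊥ := by
    rintro rfl
    exact hSQ bot_le
  have hqr : q ≠ r := by
    rintro rfl
    exact hQ1 (hOr Q hQX hXQ hAQ hQ)
  have hpq : p ≠ q := by
    rintro rfl
    exact hpX ((dvd_card_of_ne_bot hQ hQ1).trans (Subgroup.card_dvd_of_le hQX))
  have hps : p ≠ s := by
    rintro rfl
    exact hpX ((dvd_card_of_ne_bot hS hS1).trans (Subgroup.card_dvd_of_le hSX))
  have hqV : ¬ q ∣ Nat.card V := by
    obtain ⟨n, hn⟩ := IsPGroup.iff_card.1 hV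
    rw [hn]
    intro hd
    exact hqr ((Nat.prime_dvd_prime_iff_eq hq hr).1 (hq.dvd_of_dvd_pow hd))
  have hpS : ¬ p ∣ Nat.card S := fun hd => hpX (hd.trans (Subgroup.card_dvd_of_le hSX))
  obtain ⟨a, ha, ha1, haS⟩ : ∃ a ∈ A, a ≠ 1 ∧
      ¬ (S ⊓ centralizer {a} ≤ centralizer (Q : Set (MulAut V))) := by
    by_contra hcon
    push Not at hcon
    exact hSQ (Cfsg.Agent.Lib.Helper22.le_of_forall_centralizer_le A S _ hAc hAp hA2.ge hpS hAS hcon)
  set S0 : Subgroup (MulAut V) := S ⊓ centralizer {a} with hS0def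
  have hS0 : IsPGroup s S0 := hS.to_le inf_le_left
  have hS0X : S0 ≤ X := inf_le_left.trans hSX
  have hS0Q : S0 ≤ normalizer (Q : Set (MulAut V)) := hS0X.trans hXQ
  have hsQ : ¬ s ∣ Nat.card Q := not_dvd_card_of_isPGroup hq hs hsq hQ
  set Q1 : Subgroup (MulAut V) := ⁅Q, S0⁆ with hQ1def
  have hQ1Q : Q1 ≤ Q := le_normalizer_iff_commutator_le_left.mp hS0Q
  have hQ1ne : Q1 ≠ ⊥ := by
    intro hbot
    apply haS
    rw [hQ1def, commutator_eq_bot_iff_le_centralizer] at hbot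
    exact le_centralizer_iff.1 hbot
  have hQS : ⁅Q1, S0⁆ = Q1 := Cfsg.Agent.Lib.Helper22.commutator_commutator_eq S0 Q hS0 hsQ hS0Q
  have hACa : A ≤ normalizer ((centralizer {a} : Subgroup (MulAut V)) : Set (MulAut V)) := by
    have key : ∀ x ∈ A, ∀ y ∈ centralizer ({a} : Set (MulAut V)),
        x * y * x⁻¹ ∈ centralizer ({a} : Set (MulAut V)) := by
      intro x hx y hy
      rw [mem_centralizer_singleton_iff] at hy ⊢
      have hxa : x * a = a * x := hAc x hx a ha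
      have hxa' : x⁻¹ * a = a * x⁻¹ := hAc x⁻¹ (inv_mem hx) a ha
      calc x * y * x⁻¹ * a = x * y * (x⁻¹ * a) := by group
        _ = x * (y * a) * x⁻¹ := by rw [hxa']; group
        _ = (x * a) * y * x⁻¹ := by rw [hy]; group
        _ = a * (x * y * x⁻¹) := by rw [hxa]; group
    intro x hx
    rw [mem_normalizer_iff]
    intro y
    constructor
    · exact key x hx y
    · intro hy
      have := key x⁻¹ (inv_mem hx) _ hy
      simpa [mul_assoc] using this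
  have hAS0 : A ≤ normalizer (S0 : Set (MulAut V)) :=
    Cfsg.Agent.Lib.Helper22.le_normalizer_inf hAS hACa
  have hAQ1 : A ≤ normalizer (Q1 : Set (MulAut V)) := fun x hx =>
    mem_normalizer_commutator (hAQ hx) (hAS0 hx)
  have hS0Q1 : S0 ≤ normalizer (Q1 : Set (MulAut V)) := fun x hx =>
    mem_normalizer_commutator (hS0Q hx) (le_normalizer hx)
  have hQ1p : IsPGroup q Q1 := hQ.to_le hQ1Q
  have hQ1X : Q1 ≤ X := hQ1Q.trans hQX
  have hord : ∀ (t : ℕ) [Fact t.Prime] (T : Subgroup (MulAut V)), IsPGroup t T → ∀ y ∈ T,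
      ∃ k, orderOf y = t ^ k := by
    intro t _ T hT y hy
    obtain ⟨k, hk⟩ := hT ⟨y, hy⟩
    have h1 : y ^ t ^ k = 1 := by simpa using congrArg Subtype.val hk
    obtain ⟨j, -, hj⟩ := (Nat.dvd_prime_pow Fact.out).1 (orderOf_dvd_of_pow_eq_one h1)
    exact ⟨j, hj⟩
  apply hQ1ne
  refine core hqV hpq hps hsq A S0 Q1 hAc hAp hA2 hQ1p hS0 hAQ1 hAS0 hS0Q1 a ha ha1 inf_le_right
    ?_ ?_ hQS ?_ ?_
  · rw [eq_bot_iff, ← hfix]
    exact inf_le_inf_right _ hS0X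
  · rw [eq_bot_iff, ← hfix]
    exact inf_le_inf_right _ hQ1X
  · intro y hy
    rw [mem_centralizer_iff]
    intro t ht
    obtain ⟨k1, hk1⟩ := hord q Q1 hQ1p y hy.1
    obtain ⟨k2, hk2⟩ := hord s S0 hS0 t ht
    apply Cfsg.Agent.Lib.Helper25.commute_of_coprime_orderOf_of_mem (hnil a ha ha1)
      (mem_inf.2 ⟨hS0X ht, ht.2⟩) (mem_inf.2 ⟨hQ1X hy.1, hy.2⟩)
    rw [hk1, hk2]
    exact Nat.Coprime.pow _ _ ((Nat.coprime_primes hs hq).2 hsq)
  · intro b hb hb1 y hy v hv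
    obtain ⟨k1, hk1⟩ := hord q Q1 hQ1p y hy.1
    refine hcent b hb hb1 y (mem_inf.2 ⟨hQ1X hy.1, hy.2⟩) ?_ v hv
    rw [hk1]
    intro hd
    exact hqr ((Nat.prime_dvd_prime_iff_eq hr hq).1 (hr.dvd_of_dvd_pow hd)).symm

end Cfsg.Agent.Lib.Helper59.Ward
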